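import Cfsg.Agent.H700.F43.Mod
import Cfsg.Agent.S0765

/-!
# `Sp₆(3)` is generated by the block elementary matrices (S2465, F₄(3), block E)

* `gen_sp` : the `uu T` and the `vv S` generate `Sp`.
-/

set_option autoImplicit false
set_option linter.unusedSimpArgs false

namespace Cfsg.Agent.H701.F43.GenSp

open Matrix Cfsg.Agent.H700.F43

/-- a transvection in blocks -/
theorem tv_blocks (a b : Fin 3 → F3) (c : F3) :
    Cfsg.sympTransvection 3 (Sum.elim a b) c =
      Matrix.fromBlocks (1 - c • Matrix.vecMulVec a b) (c • Matrix.vecMulVec a a) (-(c • Matrix.vecMulVec b b))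
        (1 + c • Matrix.vecMulVec b a) := by
  have hJ : Matrix.J (Fin 3) F3 *ᵥ Sum.elim a b = Sum.elim (-b) a := by
    rw [Matrix.J, Matrix.fromBlocks_mulVec]
    congr 1
    · simp [Matrix.neg_mulVec]
    · simp
  unfold Cfsg.sympTransvection
  rw [hJ]
  ext i j
  rcases i with i | i <;> rcases j with j | j <;>
    simp [Matrix.vecMulVec_apply, Matrix.one_apply, sub_eq_add_neg]

/-- a symmetric matrix with a prescribed value at a nonzero vector -/
theorem exists_symm {b : Fin 3 → F3} (hb : b ≠ 0) (x : Fin 3 → F3) :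
    ∃ T : Matrix (Fin 3) (Fin 3) F3, Tᵀ = T ∧ T *ᵥ b = x := by
  obtain ⟨i, hi⟩ : ∃ i, b i ≠ 0 := by
    by_contra h
    push Not at h
    exact hb (funext h)
  have hi' : b i ≠ 0 := hi
  let e : Fin 3 → F3 := Pi.single i 1
  refine ⟨(b i)⁻¹ • (Matrix.vecMulVec x e + Matrix.vecMulVec e x) -
    ((b i)⁻¹ * (b i)⁻¹ * (x ⬝ᵥ b)) • Matrix.vecMulVec e e, ?_, ?_⟩
  · rw [Matrix.transpose_sub, Matrix.transpose_smul, Matrix.transpose_smul, Matrix.transpose_add,
      Matrix.transpose_vecMulVec, Matrix.transpose_vecMulVec, Matrix.transpose_vecMulVec, add_comm]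
  · have he : e ⬝ᵥ b = b i := by simp [e]
    rw [Matrix.sub_mulVec, Matrix.smul_mulVec, Matrix.smul_mulVec, Matrix.add_mulVec, Matrix.vecMulVec_mulVec,
      Matrix.vecMulVec_mulVec, Matrix.vecMulVec_mulVec, he]
    funext k
    simp only [Pi.sub_apply, Pi.smul_apply, Pi.add_apply, smul_eq_mul, MulOpposite.smul_eq_mul_unop,
      MulOpposite.unop_op]
    field_simp
    ring

/-- the generated group -/
def H : Subgroup Sp := Subgroup.closure {A : Sp | (∃ T hT, A = uu T hT) ∨ ∃ S hS, A = vv S hS}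

theorem uu_mem_H {T : Matrix (Fin 3) (Fin 3) F3} (hT : Tᵀ = T) : uu T hT ∈ H :=
  Subgroup.subset_closure (Or.inl ⟨T, hT, rfl⟩)

theorem vv_mem_H {S : Matrix (Fin 3) (Fin 3) F3} (hS : Sᵀ = S) : vv S hS ∈ H :=
  Subgroup.subset_closure (Or.inr ⟨S, hS, rfl⟩)

theorem tv_mem {A : Sp} {w : Fin 3 ⊕ Fin 3 → F3} {c : F3} (hA : A.1 = Cfsg.sympTransvection 3 w c) : A ∈ H := by
  obtain ⟨a, b, rfl⟩ : ∃ a b : Fin 3 → F3, w = Sum.elim a b := ⟨w ∘ Sum.inl, w ∘ Sum.inr, by
    funext i
    rcases i with i | i <;> rfl⟩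
  rw [tv_blocks] at hA
  by_cases hb : b = 0
  · subst hb
    have hT : (c • Matrix.vecMulVec a a)ᵀ = c • Matrix.vecMulVec a a := by
      rw [Matrix.transpose_smul, Matrix.transpose_vecMulVec]
    have h1 : A = uu (c • Matrix.vecMulVec a a) hT := by
      apply Subtype.ext
      rw [hA]
      show _ = Matrix.fromBlocks 1 (c • Matrix.vecMulVec a a) 0 1
      congr 1 <;> simp
    rw [h1]
    exact uu_mem_H hT
  · obtain ⟨T, hT, hTb⟩ := exists_symm hb (-a)
    have hS : (-(c • Matrix.vecMulVec b b))ᵀ = -(c • Matrix.vecMulVec b b) := by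
      rw [Matrix.transpose_neg, Matrix.transpose_smul, Matrix.transpose_vecMulVec]
    have hT' : (-T)ᵀ = -T := by rw [Matrix.transpose_neg, hT]
    have e1 : T * Matrix.vecMulVec b b = Matrix.vecMulVec (-a) b := by
      rw [Matrix.mul_vecMulVec, hTb]
    have e2 : Matrix.vecMulVec b b * T = Matrix.vecMulVec b (-a) := by
      rw [Matrix.vecMulVec_mul, ← hTb, ← Matrix.mulVec_transpose, hT]
    have e3 : Matrix.vecMulVec (-a) b * T = Matrix.vecMulVec (-a) (-a) := by
      rw [Matrix.vecMulVec_mul, ← hTb, ← Matrix.mulVec_transpose, hT]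
    have h1 : A = uu (-T) hT' * vv (-(c • Matrix.vecMulVec b b)) hS * uu T hT := by
      apply Subtype.ext
      rw [hA]
      show _ = Matrix.fromBlocks 1 (-T) 0 1 * Matrix.fromBlocks 1 0 (-(c • Matrix.vecMulVec b b)) 1 *
        Matrix.fromBlocks 1 T 0 1
      rw [Matrix.fromBlocks_multiply, Matrix.fromBlocks_multiply]
      congr 1
      · simp only [one_mul, mul_one, mul_zero, add_zero, Matrix.neg_mul, Matrix.mul_neg, neg_neg,
          Matrix.mul_smul, e1]
        ext i j
        simp [Matrix.vecMulVec_apply, sub_eq_add_neg]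
      · simp only [one_mul, mul_one, mul_zero, add_zero, zero_mul, zero_add, Matrix.neg_mul, Matrix.mul_neg, neg_neg,
          Matrix.mul_smul, e1, Matrix.add_mul, Matrix.smul_mul, e3]
        ext i j
        simp [Matrix.vecMulVec_apply]
      · simp
      · simp only [one_mul, mul_one, mul_zero, add_zero, zero_mul, zero_add, Matrix.neg_mul, Matrix.mul_neg, neg_neg,
          Matrix.mul_smul, Matrix.smul_mul, e2]
        ext i j
        simp [Matrix.vecMulVec_apply, add_comm]
    rw [h1]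
    exact mul_mem (mul_mem (uu_mem_H hT') (vv_mem_H hS)) (uu_mem_H hT)

/-- **`Sp₆(3)` is generated by the `uu T`, `vv S`.** -/
theorem gen_sp : Subgroup.closure {A : Sp | (∃ T hT, A = uu T hT) ∨ ∃ S hS, A = vv S hS} = ⊤ := by
  show H = ⊤
  rw [eq_top_iff, ← Cfsg.Agent.S0765.result (F := F3) 3, Subgroup.closure_le]
  rintro A ⟨w, c, h⟩
  exact tv_mem h

end Cfsg.Agent.H701.F43.GenSp
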